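import Cfsg.Agent.Lib.KnownSimple.MultM.L216H.Cert0
import Cfsg.Agent.Lib.KnownSimple.MultM.L216H.Cert1
import Cfsg.Agent.Lib.KnownSimple.MultM.L216H.Cert2

/-!
# A bound for the order of the presented group
-/

set_option autoImplicit false

namespace Cfsg.Agent.Lib.KnownSimple.MultM.L216H

open Cfsg Cfsg.Spor Cfsg.Agent.Lib.Compute Cfsg.Agent.Lib.KnownSimple.PE Cfsg.Agent.Lib.KnownSimple.Leech
open Cfsg.Agent.Lib.KnownSimple Cfsg.Agent.Lib.KnownSimple.AutRigid Cfsg.Agent.Lib.KnownSimple.Pres

theorem bd0 : Finite (Subgroup.closure (v '' {g | g < 2})) ∧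
    Nat.card (Subgroup.closure (v '' {g | g < 2})) ≤ 6 := by
  have h := S.step C0 (⊥ : Subgroup P) (K := K0) (n := 6) (ng := 2) (by decide +kernel) (fun _ => rfl) words0
    (fun a ha => Bool.noConfusion ha) (by decide +kernel) facts0 (by norm_num) (by decide +kernel) entries0
  rw [Subgroup.card_bot, mul_one] at h
  exact h
theorem bd1 : Finite (Subgroup.closure (v '' {g | g < 3})) ∧
    Nat.card (Subgroup.closure (v '' {g | g < 3})) ≤ 60 := by
  haveI := bd0.1
  have h := S.step C1 (Subgroup.closure (v '' {g | g < 2})) (K := K1) (n := 10) (ng := 3) (by decide +kernel) (fun _ => rfl) words1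
    (fun a ha => Subgroup.subset_closure ⟨a, by simpa [C1, Nat.blt_eq] using ha, rfl⟩) (by decide +kernel) facts1 (by norm_num) (by decide +kernel) entries1
  exact ⟨h.1, (h.2.trans (Nat.mul_le_mul_left _ bd0.2)).trans (by norm_num)⟩
theorem bd2 : Finite (Subgroup.closure (v '' {g | g < 4})) ∧
    Nat.card (Subgroup.closure (v '' {g | g < 4})) ≤ 4080 := by
  haveI := bd1.1
  have h := S.step C2 (Subgroup.closure (v '' {g | g < 3})) (K := K2) (n := 68) (ng := 4) (by decide +kernel) (fun _ => rfl) words2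
    (fun a ha => Subgroup.subset_closure ⟨a, by simpa [C2, Nat.blt_eq] using ha, rfl⟩) (by decide +kernel) facts2 (by norm_num) (by decide +kernel) entries2
  exact ⟨h.1, (h.2.trans (Nat.mul_le_mul_left _ bd1.2)).trans (by norm_num)⟩

theorem finite_P : Finite P ∧ Nat.card P ≤ 4080 :=
  finite_of_top S.closure_top bd2

instance instP : Finite P := finite_P.1

end Cfsg.Agent.Lib.KnownSimple.MultM.L216H
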