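import Mathlib

/-!
# Data of a coset enumeration
-/

set_option autoImplicit false

namespace Cfsg.Agent.Lib.KnownSimple.MultM.L216H

/-- Generated data. -/
def par0 : ℕ := 0xe40
/-- Generated data. -/
def gix0 : ℕ := 0xc
/-- Generated data. -/
def dp0 : ℕ := 0xe94
/-- Generated data. -/
def fa0 : ℕ := 0xb2346b440
/-- Generated data. -/
def fl0 : ℕ := 0x5a6
/-- Generated data. -/
def fb0 : ℕ := 0x7510258d1
/-- Generated data. -/
def fk0 : ℕ := 0x4d36a0000
/-- Generated data. -/
def po0 : ℕ := 0xa98765000000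
/-- Generated data. -/
def pc0 : ℕ := 0x249268000
/-- Generated data. -/
def pa0 : ℕ := 0x8a642084037
/-- Generated data. -/
def can0 : ℕ := 0x2c688
/-- Generated data. -/
def tb0_0 : ℕ := 0x1ab01
/-- Generated data. -/
def fi0_0 : ℕ := 0xb94360
/-- Generated data. -/
def tb0_1 : ℕ := 0x2521a
/-- Generated data. -/
def fi0_1 : ℕ := 0x5a8721

end Cfsg.Agent.Lib.KnownSimple.MultM.L216H
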