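import Mathlib

/-!
# Data of a coset enumeration
-/

set_option autoImplicit false

namespace Cfsg.Agent.Lib.KnownSimple.MultM.L216H

/-- Generated data. -/
def par1 : ℕ := 0x3fb646d2240
/-- Generated data. -/
def gix1 : ℕ := 0x4488948
/-- Generated data. -/
def dp1 : ℕ := 0x249246db488
/-- Generated data. -/
def fa1 : ℕ := 0xdcbbbaa75321dd7cc75361282459a5484332211000
/-- Generated data. -/
def fl1 : ℕ := 0x8004040010008101000810002041000203181038c063058c100040400200080810008080
/-- Generated data. -/
def fb1 : ℕ := 0x77c5dc532110dbdabcb336218245aa968765432100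
/-- Generated data. -/
def fk1 : ℕ := 0x324323244324850a90023332244b70060000000011
/-- Generated data. -/
def po1 : ℕ := 0x2c57ad56a53a54684f9d3623f7ed152a54a13244480f1c34382850a0000000000000000000
/-- Generated data. -/
def pc1 : ℕ := 0x111111111111950ba0022222222c90050000000000
/-- Generated data. -/
def pa1 : ℕ := 0x36c32bb8d1840c206136408103149477db1d58bf042d2040451cd65bc102040c114736fa8ea0991580a88681378c71658a18400214735969860c1840451cd65228624f
/-- Generated data. -/
def can1 : ℕ := 0xdcba753210
/-- Generated data. -/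
def tb1_0 : ℕ := 0x7594863120
/-- Generated data. -/
def fi1_0 : ℕ := 0x72896360c59f0c0
/-- Generated data. -/
def tb1_1 : ℕ := 0x5648971230
/-- Generated data. -/
def fi1_1 : ℕ := 0xa5a9a46d7813101
/-- Generated data. -/
def tb1_2 : ℕ := 0x9786325401
/-- Generated data. -/
def fi1_2 : ℕ := 0x7599cd8a1206782

end Cfsg.Agent.Lib.KnownSimple.MultM.L216H
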